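import Cfsg.Agent.FT.PF10.Bridge
import Cfsg.Agent.OddChar.PrimeDade.Column

/-!
# Peterfalvi 10.9: the bridge `τ(μ₀ − ζ)` for `|W₁| < |W₂|`, without coherence
-/

set_option autoImplicit false

namespace Cfsg.Agent.FT.PF10

open Cfsg Cfsg.Agent Cfsg.Agent.Char Cfsg.Agent.OddChar
open scoped ComplexConjugate

universe u

variable {G : Type u} [Group G] [Fintype G] {A₀ : Set G} {L K W₁ W₂ : Subgroup G}
  {R : G → Subgroup G} [Fintype L] {μ : (↥(W₁ ⊔ W₂) →* ℂˣ) → (L → ℂ)}
  {δ : (↥(W₁ ⊔ W₂) →* ℂˣ) → ℂ} {χ : (↥(W₁ ⊔ W₂) →* ℂˣ) → (G → ℂ)}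

open Classical in
/-- A virtual character of norm `N` has at most `N` nonzero coefficients on the family. -/
theorem card_coef_le (hχ : IsCyclicTIFamily W₁ W₂ χ) {η : G → ℂ}
    (hη : IsGeneralizedCharacter G η) {N : ℕ} (hN : classInner η η = (N : ℂ)) :
    (Finset.univ.filter fun ω => classInner η (χ ω) ≠ 0).card ≤ N := by
  choose b hb using fun ν =>
    classInner_generalized_int hη (signed_isGeneralized (hχ.irr_or_neg ν))
  set F := Finset.univ.filter fun ν => classInner η (χ ν) ≠ 0
  have hbes := bessel F χ (fun i _ => (hχ.orthonormal i i).trans (if_pos rfl))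
    (fun i _ j _ hij => (hχ.orthonormal i j).trans (if_neg hij)) η
  rw [hN, Complex.natCast_re] at hbes
  have h1 : (F.card : ℝ) ≤ ∑ i ∈ F, ‖classInner η (χ i)‖ ^ 2 := by
    rw [Finset.cast_card]
    refine Finset.sum_le_sum fun i hi => ?_
    have hi' := (Finset.mem_filter.1 hi).2
    rw [hb i] at hi' ⊢
    rw [Complex.norm_intCast, sq_abs]
    have : (1 : ℤ) ≤ b i ^ 2 := by
      have : 0 < b i ^ 2 := by
        have := Int.cast_ne_zero.1 hi'
        positivity
      omega
    exact_mod_cast this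
  exact_mod_cast h1.trans hbes

open Classical in
/-- Peterfalvi (10.9). -/
theorem bridge0 (h : Hyp A₀ L K W₁ W₂ R) (hμ : PrimeTIChars L μ δ)
    (hχ : IsCyclicTIFamily W₁ W₂ χ) (hlt : Nat.card W₁ < Nat.card W₂)
    {ζ : L → ℂ} (hζ : ζ ∈ inducedIrrAbove (K.subgroupOf L) ⊥) (hirr : IsIrrCharacter L ζ)
    (h1 : ζ 1 = (Nat.card W₁ : ℂ)) :
    ∃ θ : G → ℂ, (IsIrrCharacter G θ ∨ IsIrrCharacter G (-θ)) ∧ (∀ ω, classInner θ (χ ω) = 0) ∧
      dadeIsometry A₀ L R (prTIred μ 1 - ζ) = tiColumn χ 1 - θ := by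
  have ht := h.ti
  obtain ⟨hw3, -⟩ := h.three_le
  set C := Finset.univ.filter (fun φ : ↥(W₁ ⊔ W₂) →* ℂˣ => TrivOn W₂ φ) with hC
  have hCc : C.card = Nat.card W₁ := by
    rw [hC, ← Nat.card_eq_finsetCard, Nat.card_congr (Equiv.subtypeEquivRight fun φ => by simp :
        _ ≃ {φ : ↥(W₁ ⊔ W₂) →* ℂˣ // TrivOn W₂ φ}),
      card_trivOn_right ht.disjW ht.comm ht.W₁_cyclic]
  have h1C : (1 : ↥(W₁ ⊔ W₂) →* ℂˣ) ∈ C :=
    Finset.mem_filter.2 ⟨Finset.mem_univ _, trivOn_one⟩
  obtain ⟨hred0, hredn, -, -, -, hred1, hredK, -⟩ :=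
    prTIred_facts ht hμ 1 1 trivOn_one trivOn_one
  have hμ1 : μ 1 = fun _ => 1 := by
    rw [(primeTI_lam ht hμ (φ := 1) trivOn_one (l := 1) fun x w _ => rfl).1]
    funext x; simp [linFun]
  have hne : ∀ ω, ζ ≠ μ ω := by
    intro ω e
    obtain ⟨a, w, haw, -, hw2, haK⟩ := h.exists_elt
    have := hμ.apply_W ω a w haw hw2
    rw [← e, iia_zero_off h (OddChar43.self_mem_zspan hζ) a haK] at this
    exact mul_ne_zero (sign_sq (hμ.sign ω)).2 (Units.ne_zero _) this.symm
  set α : L → ℂ := prTIred μ 1 - ζ with hα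
  have hαg : IsGeneralizedCharacter L α := by
    refine isGeneralizedCharacter_sub ?_ (isGeneralizedCharacter_of_irr hirr)
    rw [prTIred]
    exact isGeneralizedCharacter_sum _ fun p _ => isGeneralizedCharacter_of_irr (hμ.irr _)
  have hαc := isGeneralizedCharacter_isClassFunction hαg
  have hαK : ∀ x : L, (x : G) ∉ K → α x = 0 := fun x hx => by
    rw [hα, Pi.sub_apply, hredK x hx, iia_zero_off h (OddChar43.self_mem_zspan hζ) x hx, sub_zero]
  have hαA : ∀ x : L, (x : G) ∉ A₀ → α x = 0 := by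
    intro x hx
    rcases eq_or_ne x 1 with rfl | hx1
    · rw [hα, Pi.sub_apply, hred1, hμ1, h1, mul_one, sub_self]
    · exact hαK x fun hK => hx (h.mem_A₀ hK hx1)
  set β := dadeIsometry A₀ L R α with hβ
  have hβg : IsGeneralizedCharacter G β := dade_isGeneralized h.pd.dade hαg hαA
  have hred_irr : classInner ζ (prTIred μ 1) = 0 :=
    classInner_red_irr_eq_zero hμ hirr fun p _ => hne _
  have hβn : classInner β β = ((Nat.card W₁ + 1 : ℕ) : ℂ) := by
    rw [hβ, classInner_dade_dade h.pd.dade hαc hαA hαc, hα, classInner_sub_left,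
      classInner_sub_right, classInner_sub_right, hred_irr, ← classInner_conj ζ (prTIred μ 1),
      hred_irr, map_zero, classInner_irr_self hirr, hredn]
    push_cast; ring
  have hβ1 : classInner β (χ 1) = 1 := by
    have i1 : classInner (prTIred μ 1) (μ 1) = 1 := by
      rw [prTIred, classInner_sum_left, Finset.sum_eq_single (1 : ↥(W₁ ⊔ W₂) →* ℂˣ)]
      · rw [show (1 : ↥(W₁ ⊔ W₂) →* ℂˣ) * 1 = 1 from mul_one (1 : ↥(W₁ ⊔ W₂) →* ℂˣ), classInner_irr_self (hμ.irr 1)]
      · intro p _ hp
        exact classInner_irr_ne (hμ.irr _) (hμ.irr 1) fun e =>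
          hp ((mul_one p).symm.trans (hμ.injective e))
      · exact fun hh => absurd (by simp) hh
    rw [hμ1] at i1
    have i2 : classInner ζ (fun _ : L => (1 : ℂ)) = 0 := by
      rw [← hμ1]; exact classInner_irr_ne hirr (hμ.irr 1) (hne 1)
    rw [hχ.map_one, hβ, classInner_dadeIsometry h.pd.dade hαc hαA (χ := fun _ => 1)
      (ψ := fun _ => 1) (fun _ _ => rfl), hα, classInner_sub_left, i1, i2, sub_zero]
    intro a _
    rw [← finsum_set_coe_eq_finsum_mem, finsum_eq_sum_of_fintype, Finset.sum_const,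
      Finset.card_univ, nsmul_one, ← Nat.card_eq_fintype_card]
    exact (inv_mul_cancel₀ CharInd.natCard_ne_zero).symm
  set col := tiColumn χ 1 with hcol
  have hcolsum : col = ∑ φ ∈ C, χ φ := by
    rw [hcol, tiColumn, hC]
    exact Finset.sum_congr (Finset.ext fun φ => by simp) fun φ _ => congrArg χ (mul_one φ)
  have hcolcoef : ∀ ω, classInner col (χ ω) = if ω ∈ C then 1 else 0 := by
    intro ω
    rw [hcolsum, classInner_sum_left]
    by_cases hω : ω ∈ C
    · rw [if_pos hω, Finset.sum_eq_single ω (fun φ _ hne => (hχ.orthonormal φ ω).trans (if_neg hne))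
        (fun hh => absurd hω hh), hχ.orthonormal, if_pos rfl]
    · rw [if_neg hω]
      exact Finset.sum_eq_zero fun φ hφ =>
        (hχ.orthonormal φ ω).trans (if_neg fun e => hω (by rw [← e]; exact hφ))
  have hcolg : IsGeneralizedCharacter G col := by
    rw [hcolsum]
    exact isGeneralizedCharacter_sum _ fun p _ => signed_isGeneralized (hχ.irr_or_neg p)
  set θ := col - β with hθ
  have hθg : IsGeneralizedCharacter G θ := isGeneralizedCharacter_sub hcolg hβg
  have hθc := isGeneralizedCharacter_isClassFunction hθg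
  have hθcoef : ∀ ω, classInner θ (χ ω) = (if ω ∈ C then 1 else 0) - classInner β (χ ω) :=
    fun ω => by rw [hθ, classInner_sub_left, hcolcoef]
  have hθV : ∀ w : ↥(W₁ ⊔ W₂), (w : G) ∉ W₁ → (w : G) ∉ W₂ → θ w = 0 := by
    intro w w1 w2
    have hwA : (w : G) ∈ A₀ := by
      rw [h.pd.A₀_eq]; exact Or.inr ⟨1, L.one_mem, w, w.2, w1, w2, by group⟩
    have hwK : (w : G) ∉ K := fun hK => w2 ((ht.mem_K_iff w).1 hK)
    have e1 := dadeIsometry_apply h.pd.dade hαc (a := ⟨w, ht.W_le w.2⟩) hwA (Subgroup.one_mem _)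
    rw [mul_one, ← hβ] at e1
    have e2 : col w = 0 := by
      rw [hcolsum, Finset.sum_apply, ← hredK ⟨w, ht.W_le w.2⟩ hwK, prTIred, Finset.sum_apply]
      refine Finset.sum_congr (Finset.ext fun φ => by simp [hC]) fun φ hφ => ?_
      have hφ' : TrivOn W₂ φ := by simpa [hC] using hφ
      rw [hχ.eq_on φ w w1 w2, show φ * (1 : ↥(W₁ ⊔ W₂) →* ℂˣ) = φ from mul_one φ,
        (primeTI_left ht hμ φ hφ').2.2.2 ⟨w, ht.W_le w.2⟩ w rfl]
    rw [hθ, Pi.sub_apply, e2, e1, hαK _ hwK, sub_zero]
  have h10 : classInner θ (χ 1) = 0 := by rw [hθcoef, if_pos h1C, hβ1, sub_self]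
  set F := Finset.univ.filter fun ω => classInner β (χ ω) ≠ 0 with hF
  have hFc : F.card ≤ Nat.card W₁ + 1 := card_coef_le hχ hβg hβn
  set T := Finset.univ.filter fun ω => classInner θ (χ ω) ≠ 0 with hT
  have hTsub : T ⊆ (C ∪ F).erase 1 := by
    intro ω hω
    have hω' := (Finset.mem_filter.1 hω).2
    refine Finset.mem_erase.2 ⟨fun e => hω' (e ▸ h10), ?_⟩
    by_contra hh
    simp only [Finset.mem_union, not_or, hF, Finset.mem_filter, Finset.mem_univ, true_and,
      not_not] at hh
    exact hω' (by rw [hθcoef, if_neg hh.1, hh.2, sub_zero])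
  have h1F : (1 : ↥(W₁ ⊔ W₂) →* ℂˣ) ∈ F := by simp [hF, hβ1]
  have hfew : Nat.card {ω : ↥(W₁ ⊔ W₂) →* ℂˣ // classInner θ (χ ω) ≠ 0} < 2 * Nat.card W₁ := by
    rw [Nat.card_congr (Equiv.subtypeEquivRight fun ω => by simp [hT] :
      {ω : ↥(W₁ ⊔ W₂) →* ℂˣ // classInner θ (χ ω) ≠ 0} ≃ {ω // ω ∈ T}), Nat.card_eq_finsetCard]
    have h2 := Finset.card_le_card hTsub
    have h3 := Finset.card_union_add_card_inter C F
    have h4 : 1 ≤ (C ∩ F).card := Finset.card_pos.2 ⟨1, Finset.mem_inter.2 ⟨h1C, h1F⟩⟩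
    rw [Finset.card_erase_of_mem (Finset.mem_union_left _ h1C)] at h2
    omega
  -- a nonzero coefficient of `θ` gives too many coefficients of `β`
  have hzero : ∀ ω, classInner θ (χ ω) = 0 := by
    by_contra hnz
    simp only [not_forall] at hnz
    obtain ⟨ω₀, hω₀⟩ := hnz
    have hsymm : ∀ T' : Finset (↥(W₁ ⊔ W₂) →* ℂˣ), (∀ ω ∈ T', classInner θ (χ ω) ≠ 0) →
        (∀ ω ∈ C, ω ∉ T' → classInner θ (χ ω) = 0) →
        C.card + T'.card ≤ F.card + 2 * (C ∩ T').card := by
      intro T' hT1 hT2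
      have hsub : (C \ T') ∪ (T' \ C) ⊆ F := by
        intro ω hω
        simp only [Finset.mem_union, Finset.mem_sdiff] at hω
        simp only [hF, Finset.mem_filter, Finset.mem_univ, true_and]
        intro hb
        rcases hω with ⟨a, b⟩ | ⟨a, b⟩
        · have := hT2 ω a b
          rw [hθcoef, if_pos a, hb, sub_zero] at this
          exact one_ne_zero this
        · exact hT1 ω a (by rw [hθcoef, if_neg b, hb, sub_zero])
      have := Finset.card_le_card hsub
      rw [Finset.card_union_of_disjoint disjoint_sdiff_sdiff] at this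
      have e1 := Finset.card_sdiff_add_card_inter C T'
      have e2 := Finset.card_sdiff_add_card_inter T' C
      rw [Finset.inter_comm T' C] at e2
      omega
    rcases coef_row_or_column h.pd.selfNorm hχ ht.odd_W hlt hθc hθV hfew with
      hz | ⟨ψ₀, a, hz⟩ | ⟨φ₀, a, hz⟩
    · exact hω₀ (hz ω₀)
    · have ha : a ≠ 0 := fun e => hω₀ (by rw [hz, e, ite_self])
      set T' := Finset.univ.filter fun ω : ↥(W₁ ⊔ W₂) →* ℂˣ => TrivOn W₂ (ω * ψ₀⁻¹) with hT'
      have hc1 : T'.card = C.card := by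
        refine (Finset.card_bij (fun ω _ => ω * ψ₀) (fun ω hω => ?_) (fun _ _ _ _ e => ?_)
          fun ω hω => ⟨ω * ψ₀⁻¹, ?_, ?_⟩).symm
        · simp only [hC, Finset.mem_filter, Finset.mem_univ, true_and] at hω
          simp only [hT', Finset.mem_filter, Finset.mem_univ, true_and]
          rwa [show ω * ψ₀ * ψ₀⁻¹ = ω from MonoidHom.ext fun w => by simp]
        · exact mul_right_cancel e
        · simp only [hT', Finset.mem_filter, Finset.mem_univ, true_and] at hω
          exact Finset.mem_filter.2 ⟨Finset.mem_univ _, hω⟩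
        · exact MonoidHom.ext fun w => by simp
      have hdis : C ∩ T' = ∅ := by
        refine Finset.eq_empty_of_forall_notMem fun ω hω => ?_
        simp only [Finset.mem_inter, hC, hT', Finset.mem_filter, Finset.mem_univ, true_and] at hω
        have e := hz 1
        rw [h10, if_pos] at e
        · exact ha e.symm
        · intro w hw
          have a1 := hω.1 w hw
          have a2 := hω.2 w hw
          simpa [a1] using a2
      have := hsymm T' (fun ω hω => by rw [hz, if_pos (Finset.mem_filter.1 hω).2]; exact ha)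
        (fun ω _ hω => by rw [hz, if_neg fun e => hω (Finset.mem_filter.2 ⟨Finset.mem_univ _, e⟩)])
      rw [hdis, Finset.card_empty, hc1, hCc] at this
      omega
    · have ha : a ≠ 0 := fun e => hω₀ (by rw [hz, e, ite_self])
      set T' := Finset.univ.filter fun ω : ↥(W₁ ⊔ W₂) →* ℂˣ => TrivOn W₁ (ω * φ₀⁻¹) with hT'
      have hc1 : T'.card = Nat.card W₂ := by
        rw [← card_trivOn_left ht.disjW ht.comm ht.W₂_cyclic, Nat.card_eq_fintype_card,
          Fintype.card_subtype]
        refine (Finset.card_bij (fun ω _ => ω * φ₀) (fun ω hω => ?_) (fun _ _ _ _ e => ?_)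
          fun ω hω => ⟨ω * φ₀⁻¹, ?_, ?_⟩).symm
        · simp only [Finset.mem_filter, Finset.mem_univ, true_and] at hω
          simp only [hT', Finset.mem_filter, Finset.mem_univ, true_and]
          rwa [show ω * φ₀ * φ₀⁻¹ = ω from MonoidHom.ext fun w => by simp]
        · exact mul_right_cancel e
        · simp only [hT', Finset.mem_filter, Finset.mem_univ, true_and] at hω
          exact Finset.mem_filter.2 ⟨Finset.mem_univ _, hω⟩
        · exact MonoidHom.ext fun w => by simp
      have hi : (C ∩ T').card ≤ 1 := by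
        refine Finset.card_le_one.2 fun ω hω ω' hω' => ?_
        simp only [Finset.mem_inter, hC, hT', Finset.mem_filter, Finset.mem_univ, true_and]
          at hω hω'
        have hq : TrivOn W₁ (ω * ω'⁻¹) := fun w hw => by
          have a1 := hω.2 w hw
          have a2 := hω'.2 w hw
          simp only [MonoidHom.mul_apply, MonoidHom.inv_apply, mul_inv_eq_one] at a1 a2 ⊢
          rw [a1, a2]
        have hp : TrivOn W₂ (ω * ω'⁻¹) := fun w hw => by simp [hω.1 w hw, hω'.1 w hw]
        have := (pair_inj ht.comm hp trivOn_one trivOn_one hq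
          (MonoidHom.ext fun w => by simp)).1
        exact MonoidHom.ext fun w => by
          have := DFunLike.congr_fun this w
          simpa [mul_inv_eq_one] using this
      have := hsymm T' (fun ω hω => by rw [hz, if_pos (Finset.mem_filter.1 hω).2]; exact ha)
        (fun ω _ hω => by rw [hz, if_neg fun e => hω (Finset.mem_filter.2 ⟨Finset.mem_univ _, e⟩)])
      rw [hc1, hCc] at this
      omega
  refine ⟨θ, ?_, hzero, ?_⟩
  · refine generalized_norm_one hθg ?_
    have hbc : ∀ φ ∈ C, classInner β (χ φ) = 1 := fun φ hφ => by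
      have := hzero φ
      rw [hθcoef, if_pos hφ, sub_eq_zero] at this
      exact this.symm
    have e1 : classInner β col = (Nat.card W₁ : ℂ) := by
      rw [hcolsum, classInner_sum_right, Finset.sum_congr rfl hbc, Finset.sum_const, nsmul_one, hCc]
    have e2 : classInner col col = (Nat.card W₁ : ℂ) := by
      rw [hcol, tiColumn_inner ht hχ trivOn_one trivOn_one, if_pos rfl]
    rw [hθ, classInner_sub_left, classInner_sub_right, classInner_sub_right, e2, hβn,
      ← classInner_conj β col, e1, map_natCast]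
    push_cast; ring
  · rw [hθ, sub_sub_cancel]

end Cfsg.Agent.FT.PF10
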